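import Mathlib
import Cfsg.Agent.H884.Ext4
import Cfsg.Agent.H884.Avg

/-!
# Extension fields in orthogonal groups: the case `B = 1`, degree at least five (helper884)

If `r ≥ 5` the group of Siegel transformations `rho v (c y)`, `c ∈ K`, acts freely on `X / H`
outside `H`, and the averaging principle applies to the tensor `f_K(a, b) w`. This works already in
dimension three over `K`.
-/

set_option autoImplicit false
set_option linter.unusedSectionVars false

namespace Cfsg.Agent.H884.Ext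

open QuadraticMap Cfsg.Agent.LieClassical.OrthCore Cfsg.Agent.LieClassical.OrthTrans
  Cfsg.Agent.LieClassical.OrthSimple Cfsg.Agent.LieClassical.OrthFinite Cfsg.Agent.H883.Root
  Cfsg.Agent.H883.Sub Module Cfsg.Agent.H884.Avg

variable {F K V : Type*} [Field F] [Field K] [Algebra F K] [AddCommGroup V] [Module F V] [Module K V]
  [IsScalarTower F K V] {Q : QuadraticForm F V} {QK : QuadraticForm K V}
  {X : Subgroup (V ≃ₗ[F] V)} {v v' : V}

/-- A map that normalises `K` is semilinear. -/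
theorem mem_NK_of_forall [Finite K] [Nontrivial V] {g : V ≃ₗ[F] V}
    (hg : ∀ c : K, ∃ c' : K, ∀ w, g (c • w) = c' • g w) : g ∈ NK F K V := by
  choose f hf using hg
  obtain ⟨v, hv⟩ := exists_ne (0 : V)
  have hgv : g v ≠ 0 := fun h0 => hv (g.map_eq_zero_iff.1 h0)
  have hinj : ∀ {a b : K}, a • g v = b • g v → a = b := fun h => smul_left_injective K hgv h
  let σ : K →+* K :=
    { toFun := f
      map_one' := hinj (by rw [← hf, one_smul, one_smul])
      map_mul' := fun a b => hinj (by rw [← hf, mul_smul, hf, hf, ← mul_smul])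
      map_zero' := hinj (by rw [← hf, zero_smul, zero_smul, map_zero])
      map_add' := fun a b => hinj (by rw [← hf, add_smul, add_smul, map_add, hf, hf]) }
  refine ⟨RingEquiv.ofBijective σ ⟨σ.injective, Finite.surjective_of_injective σ.injective⟩,
    fun c w => hf c w⟩

theorem orderOf_dvd_finrank [FiniteDimensional F K] (τ : K ≃ₐ[F] K) :
    orderOf τ ∣ finrank F K := by
  have h1 := IntermediateField.finrank_fixedField_eq_card (Subgroup.zpowers τ)
  rw [← Nat.card_zpowers]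
  rw [← Module.finrank_mul_finrank F (IntermediateField.fixedField (Subgroup.zpowers τ)) K, h1]
  exact Dvd.intro_left _ rfl

/-- Semilinear maps with `(t - 1)³ = 0` are linear. -/
theorem linear_of_unip [Finite K] [Nontrivial V] (hr : (finrank F K).Prime) (h5 : 5 ≤ finrank F K)
    {t : V ≃ₗ[F] V} (ht : t ∈ NK F K V)
    (hu : ∀ x, t (t (t x)) - (3 : F) • t (t x) + (3 : F) • t x - x = 0) (c : K) (x : V) :
    t (c • x) = c • t x := by
  have hfd : FiniteDimensional F K := FiniteDimensional.of_finrank_pos hr.pos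
  obtain ⟨σ, hσ⟩ := ht
  let τ := toAlgEquiv hσ
  have hτ : ∀ a, τ a = σ a := fun a => rfl
  by_cases hτ1 : τ = 1
  · rw [hσ, ← hτ, hτ1]
    rfl
  exfalso
  have hord : orderOf τ = finrank F K :=
    ((Nat.dvd_prime hr).1 (orderOf_dvd_finrank τ)).resolve_left
      (fun h1 => hτ1 (orderOf_eq_one_iff.1 h1))
  obtain ⟨x0, hx0, htx⟩ : ∃ x0, x0 ≠ 0 ∧ t x0 = x0 := by
    obtain ⟨x, hx⟩ := exists_ne (0 : V)
    by_cases h1 : t x - x = 0
    · exact ⟨x, hx, sub_eq_zero.1 h1⟩
    · by_cases h2 : t (t x - x) - (t x - x) = 0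
      · exact ⟨_, h1, sub_eq_zero.1 h2⟩
      · refine ⟨_, h2, ?_⟩
        rw [← sub_eq_zero]
        have h3 := hu x
        have e3 : ∀ z : V, (3 : F) • z = z + z + z := by
          intro z
          rw [show (3 : F) = 1 + 1 + 1 by norm_num, add_smul, add_smul, one_smul]
        rw [e3, e3] at h3
        rw [← h3]
        simp only [map_sub]
        abel
  have hkey : ∀ c : K, τ (τ (τ c)) - 3 * τ (τ c) + 3 * τ c - c = 0 := by
    intro c
    have h3 := hu (c • x0)
    rw [hσ, htx, hσ, htx, hσ, htx, ← algebraMap_smul K (3 : F), ← algebraMap_smul K (3 : F),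
      smul_smul, smul_smul, ← sub_smul, ← add_smul, ← sub_smul, map_ofNat] at h3
    exact (smul_eq_zero.1 h3).resolve_right hx0
  have hinj : Function.Injective (fun i : Fin 4 => (((τ ^ (i : ℕ) : K ≃ₐ[F] K) : K →* K))) := by
    intro i j hij
    have h1 : τ ^ (i : ℕ) = τ ^ (j : ℕ) := by
      ext a
      exact DFunLike.congr_fun hij a
    have h2 := pow_injOn_Iio_orderOf (x := τ) (show (i : ℕ) ∈ Set.Iio (orderOf τ) by
      rw [hord, Set.mem_Iio]; omega) (show (j : ℕ) ∈ Set.Iio (orderOf τ) by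
      rw [hord, Set.mem_Iio]; omega) h1
    exact Fin.ext h2
  have hli := (linearIndependent_monoidHom K K).comp _ hinj
  rw [Fintype.linearIndependent_iff] at hli
  have h0 := hli ![-1, 3, -3, 1] (by
    funext c
    rw [Fin.sum_univ_four]
    have := hkey c
    simp only [Pi.add_apply, Pi.smul_apply, smul_eq_mul, Function.comp_apply, Pi.zero_apply,
      Matrix.cons_val_zero, Matrix.cons_val_one, Matrix.cons_val]
    change -1 * c + 3 * τ c + -3 * τ (τ c) + 1 * τ (τ (τ c)) = 0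
    linear_combination this) 3
  simp at h0

section

variable [Finite K] [FiniteDimensional F V]

/-- The second half of `unique_fix`. -/
theorem mem_NK_of_conj_linear (h : TF Q QK) (hG : Good Q) (hm : 3 ≤ finrank K V) (hX : Over Q K X)
    (hT : ∀ v, v ≠ 0 → QK v = 0 → Triv QK X v) {v y : V} (hv0 : v ≠ 0) (hv : QK v = 0)
    (hy : polar QK v y = 0) (hy0 : QK y ≠ 0) {g : V ≃ₗ[F] V} (hg : g ∈ X) {c : K} (hc : c ≠ 0)
    (hlin : ∀ (a : K) (x : V), (g * rho F QK v (c • y) hv (smul_perp hy c) * g⁻¹) (a • x) =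
      a • (g * rho F QK v (c • y) hv (smul_perp hy c) * g⁻¹) x) :
    g ∈ NK F K V := by
  have hXO : X ≤ O Q := fun g hg => E_le_O (hX.le hg)
  have hFfin : Finite F := Finite.of_injective _ (algebraMap F K).injective
  have hnt : Nontrivial V := ⟨⟨v, 0, hv0⟩⟩
  obtain ⟨v', hH⟩ := exists_hyp h.nondeg hv hv0
  have hg0 : ∀ x, g (g⁻¹ x) = x := fun x => g.apply_symm_apply x
  have hg1 : ∀ x, g⁻¹ (g x) = x := fun x => g.symm_apply_apply x
  set ρ := rho F QK v (c • y) hv (smul_perp hy c) with hρ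
  set t := g * ρ * g⁻¹ with ht
  set d := (2 : K) * QK (c • y) with hd
  have hd0 : d ≠ 0 := by
    rw [hd, QuadraticMap.map_smul, smul_eq_mul]
    exact mul_ne_zero h.two (mul_ne_zero (mul_ne_zero hc hc) hy0)
  have hD : ∀ x, t (t x) - (2 : F) • t x + x = -g ((d * polar QK v (g⁻¹ x)) • v) := by
    intro x
    have h1 := congrArg g (rho_sq (F := F) hv (smul_perp hy c) (g⁻¹ x))
    have h2 : ∀ z, t (g z) = g (ρ z) := by
      intro z
      rw [ht, LinearEquiv.mul_apply, LinearEquiv.mul_apply, hg1]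
    rw [map_add, map_sub, map_smul, ← hρ, ← h2, ← h2, hg0, map_neg, smul_smul, ← mul_assoc, ← hd] at h1
    exact h1
  have hDlin : ∀ (κ : K) (x : V), t (t (κ • x)) - (2 : F) • t (κ • x) + κ • x =
      κ • (t (t x) - (2 : F) • t x + x) := by
    intro κ x
    rw [hlin, hlin, smul_add, smul_sub, smul_comm κ (2 : F)]
  have hline : ∀ κ : K, ∃ b : K, κ • g v = g (b • v) := by
    intro κ
    obtain ⟨z0, hz0⟩ : ∃ z0, polar QK v (g⁻¹ z0) = -d⁻¹ :=
      ⟨g ((-d⁻¹) • v'), by rw [hg1, polar_smul_right, hH.pair, smul_eq_mul, mul_one]⟩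
    have h1 : t (t z0) - (2 : F) • t z0 + z0 = g v := by
      rw [hD, hz0, mul_neg, mul_inv_cancel₀ hd0, neg_one_smul, map_neg, neg_neg]
    refine ⟨-(d * polar QK v (g⁻¹ (κ • z0))), ?_⟩
    rw [← h1, ← hDlin, hD, neg_smul, map_neg]
  have hgv0 : g v ≠ 0 := fun h0 => hv0 (g.map_eq_zero_iff.1 h0)
  have hline' := exists_bijOn hgv0 hline
  have hgvs : QK (g v) = 0 := by
    have h1 : ∀ κ : K, Algebra.trace F K (κ ^ 2 * QK (g v)) = 0 := by
      intro κ
      obtain ⟨b, hb⟩ := hline κ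
      have h2 : Q (κ • g v) = 0 := by
        rw [hb, hXO hg, h.tr, QuadraticMap.map_smul, hv, smul_zero, map_zero]
      rw [h.tr, QuadraticMap.map_smul, smul_eq_mul, ← pow_two] at h2
      exact h2
    apply trace_ext (F := F)
    intro a
    obtain ⟨s, t, rfl⟩ := exists_sq_sub h.two a
    rw [sub_mul, map_sub, h1, h1, sub_self]
  obtain ⟨k, hkX, hklin, a, ha, hka⟩ := hX.exists_trans h hG hm hgvs hv hgv0 hv0
  have h1 : k * g ∈ NK F K V := by
    refine (hT v hv0 hv).stab_le h hG hm hX hH (X.mul_mem hkX hg) fun b => ?_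
    obtain ⟨κ, hκ⟩ := hline' b
    exact ⟨κ * a, by rw [LinearEquiv.mul_apply, hκ, hklin, hka, smul_smul]⟩
  have h2 : g = k⁻¹ * (k * g) := by group
  rw [h2]
  exact (NK F K V).mul_mem ((NK F K V).inv_mem (mem_NK_of_linear hklin)) h1

/-- **Freeness.** -/
theorem free (h : TF Q QK) (hG : Good Q) (hm : 3 ≤ finrank K V) (hX : Over Q K X)
    (hr : (finrank F K).Prime) (h5 : 5 ≤ finrank F K)
    (hT : ∀ v, v ≠ 0 → QK v = 0 → Triv QK X v) {v y : V} (hv0 : v ≠ 0) (hv : QK v = 0)
    (hy : polar QK v y = 0) (hy0 : QK y ≠ 0) {g : V ≃ₗ[F] V} (hg : g ∈ X) {c : K} (hc : c ≠ 0)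
    (hgN : g⁻¹ * rho F QK v (c • y) hv (smul_perp hy c) * g ∈ NK F K V) :
    g ∈ NK F K V := by
  have hnt : Nontrivial V := ⟨⟨v, 0, hv0⟩⟩
  obtain ⟨v', hH⟩ := exists_hyp h.nondeg hv hv0
  rw [← (NK F K V).inv_mem_iff]
  refine mem_NK_of_conj_linear h hG hm hX hT hv0 hv hy hy0 (X.inv_mem hg) hc ?_
  rw [inv_inv]
  refine linear_of_unip hr h5 hgN fun x => ?_
  set ρ := rho F QK v (c • y) hv (smul_perp hy c) with hρ
  have h1 : ∀ z, (g⁻¹ * ρ * g) z = g⁻¹ (ρ (g z)) := fun z => rfl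
  have h2 : ∀ z, g (g⁻¹ z) = z := fun x => g.apply_symm_apply x
  have h3 : ∀ z, g⁻¹ (g z) = z := fun x => g.symm_apply_apply x
  have hcube : ∀ z, ρ (ρ (ρ z)) - (3 : F) • ρ (ρ z) + (3 : F) • ρ z - z = 0 := by
    intro z
    have e1 := rho_sq (F := F) hv (smul_perp hy c) z
    have e2 := rho_sq (F := F) hv (smul_perp hy c) (ρ z)
    have e3 : polar QK v (ρ z) = polar QK v z := by
      rw [hρ, rho_apply]
      simp only [polar_add_right, polar_sub_right, polar_smul_right, hy, hH.polar_left, smul_zero,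
        sub_zero, add_zero]
    rw [← hρ] at e1 e2
    rw [e3, ← e1] at e2
    have e4 : ∀ z : V, (3 : F) • z = z + z + z := by
      intro z
      rw [show (3 : F) = 1 + 1 + 1 by norm_num, add_smul, add_smul, one_smul]
    have e5 : ∀ z : V, (2 : F) • z = z + z := fun z => two_smul F z
    rw [e5, e5] at e2
    rw [e4, e4]
    have e6 : ρ (ρ (ρ z)) = (ρ (ρ z) - (ρ z + ρ z) + z) + (ρ (ρ z) + ρ (ρ z)) - ρ z := by
      rw [← e2]; abel
    rw [e6]
    abel
  rw [h1, h1, h1, h2, h2]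
  have h4 : g⁻¹ (ρ (ρ (ρ (g x))) - (3 : F) • ρ (ρ (g x)) + (3 : F) • ρ (g x) - g x) = 0 := by
    rw [hcube, map_zero]
  rw [map_sub, map_add, map_sub, map_smul, map_smul, h3] at h4
  exact h4

/-- The Siegel transformations as a homomorphism. -/
def rhoHom (F : Type*) {K V ι : Type*} [Field F] [Field K] [Algebra F K] [AddCommGroup V]
    [Module F V] [Module K V] [IsScalarTower F K V] (QK : QuadraticForm K V) (v y : V)
    (hv : QK v = 0) (hy : polar QK v y = 0) (e : (ι → F) →ₗ[F] K) :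
    Multiplicative (ι → F) →* (V ≃ₗ[F] V) where
  toFun x := rho F QK v (e x.toAdd • y) hv (smul_perp hy _)
  map_one' := by
    ext z
    rw [rho_apply]
    simp
  map_mul' x x' := by
    rw [rho_mul hv _ _ (by rw [← add_smul]; exact smul_perp hy _)]
    congr 1
    rw [toAdd_mul, map_add, add_smul]

/-- The linear part. -/
def L1 (F : Type*) {K V : Type*} [Field F] [Field K] [Algebra F K] [AddCommGroup V]
    [Module F V] [Module K V] [IsScalarTower F K V] (QK : QuadraticForm K V) (v y : V) :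
    K →ₗ[F] V →ₗ[F] V :=
  LinearMap.mk₂ F (fun c z => c • (polar QK v z • y - polar QK y z • v))
    (fun c c' z => by rw [add_smul]) (fun a c z => by rw [smul_assoc])
    (fun c z z' => by rw [polar_add_right, polar_add_right]; module)
    (fun a c z => by
      rw [← algebraMap_smul K a z, polar_smul_right, polar_smul_right,
        ← algebraMap_smul K a (c • _)]
      simp only [smul_eq_mul]
      module)

/-- The quadratic part. -/
def L2 (F : Type*) {K V : Type*} [Field F] [Field K] [Algebra F K] [AddCommGroup V]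
    [Module F V] [Module K V] [IsScalarTower F K V] (QK : QuadraticForm K V) (v y : V) :
    K →ₗ[F] V →ₗ[F] V :=
  LinearMap.mk₂ F (fun c z => c • (-(QK y * polar QK v z) • v))
    (fun c c' z => by rw [add_smul]) (fun a c z => by rw [smul_assoc])
    (fun c z z' => by rw [polar_add_right]; module)
    (fun a c z => by
      rw [← algebraMap_smul K a z, polar_smul_right, ← algebraMap_smul K a (c • _)]
      simp only [smul_eq_mul]
      module)

theorem rho_eq (v y : V) (hv : QK v = 0) (hy : polar QK v y = 0) (c : K) :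
    ((rho F QK v (c • y) hv (smul_perp hy c) : V ≃ₗ[F] V) : V →ₗ[F] V) =
      LinearMap.id + L1 F QK v y c + L2 F QK v y (c * c) := by
  ext z
  change rho F QK v (c • y) hv (smul_perp hy c) z =
    z + c • (polar QK v z • y - polar QK y z • v) + (c * c) • (-(QK y * polar QK v z) • v)
  rw [rho_apply, polar_smul_left, QuadraticMap.map_smul]
  simp only [smul_eq_mul]
  module

theorem rho_pol {ι : Type*} [Fintype ι] (v y : V) (hv : QK v = 0) (hy : polar QK v y = 0)
    (e : (ι → F) →ₗ[F] K) :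
    (fun x : ι → F => ((rho F QK v (e x • y) hv (smul_perp hy _) : V ≃ₗ[F] V) : V →ₗ[F] V)) ∈
      Pol F ι (V →ₗ[F] V) 2 := by
  have h1 : (fun x : ι → F => ((rho F QK v (e x • y) hv (smul_perp hy _) : V ≃ₗ[F] V) :
      V →ₗ[F] V)) = (fun _ => LinearMap.id) + (fun x => L1 F QK v y (e x)) +
        (fun x => L2 F QK v y (e x * e x)) := by
    funext x
    exact rho_eq v y hv hy (e x)
  rw [h1]
  refine Submodule.add_mem _ (Submodule.add_mem _ ?_ ?_) ?_
  · exact Pol.mono (by omega) (Pol.const _)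
  · exact Pol.mono (by omega) (Pol.map (Pol.linear e) (L1 F QK v y))
  · exact Pol.map (Pol.bilin (Pol.linear e) (Pol.linear e) (LinearMap.mul F K)) (L2 F QK v y)

/-- **Case `B = 1`, degree at least five**: the overgroup is semilinear (dimension at least three). -/
theorem le_NK_of_triv5 [FiniteDimensional K V] (h : TF Q QK) (hG : Good Q)
    (hm : 3 ≤ finrank K V) (hX : Over Q K X) (hr : (finrank F K).Prime) (h5 : 5 ≤ finrank F K)
    (hT : ∀ v, v ≠ 0 → QK v = 0 → Triv QK X v) : X ≤ NK F K V := by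
  classical
  have hXO : X ≤ O Q := fun g hg => E_le_O (hX.le hg)
  have hFfin : Finite F := Finite.of_injective _ (algebraMap F K).injective
  have := Fintype.ofFinite F
  have hfd : FiniteDimensional F K := FiniteDimensional.of_finrank_pos hr.pos
  have hVfin : Finite V := Module.finite_of_finite F
  have hGfin : Finite (V ≃ₗ[F] V) :=
    Finite.of_injective (fun f => (f : V → V)) DFunLike.coe_injective
  obtain ⟨v, hv0, hv, -⟩ := exists_sing_perp (Q := QK) ![] (by omega : 0 + 3 ≤ finrank K V)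
  have hnt : Nontrivial V := ⟨⟨v, 0, hv0⟩⟩
  obtain ⟨v', hH⟩ := exists_hyp h.nondeg hv hv0
  obtain ⟨y, hy0, hy, -⟩ := exists_nonsing_perp h hm hH
  let ι := Fin (finrank F K)
  let e : (ι → F) ≃ₗ[F] K := (finBasis F K).equivFun.symm
  let H : Subgroup X := (NK F K V).subgroupOf X
  have := Fintype.ofFinite (X ⧸ H)
  have hρX : ∀ c : K, rho F QK v (c • y) hv (smul_perp hy c) ∈ X := fun c => hX.rho_mem h hG hv _
  let ρ' := rhoHom F QK v y hv hy (e : (ι → F) →ₗ[F] K)
  have hρ' : ∀ x, ρ' x = rho F QK v (e x.toAdd • y) hv (smul_perp hy _) := fun x => rfl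
  let ρ : Multiplicative (ι → F) →* X := ρ'.codRestrict X fun x => hρX _
  have hρ : ∀ x, ((ρ x : X) : V ≃ₗ[F] V) = rho F QK v (e x.toAdd • y) hv (smul_perp hy _) :=
    fun x => rfl
  -- the tensor
  let T : V → V → V → V := fun a b w => polar QK a b • w
  let Φ : V → V → V → X → V := fun a b w g =>
    (g : V ≃ₗ[F] V) (T ((g : V ≃ₗ[F] V)⁻¹ a) ((g : V ≃ₗ[F] V)⁻¹ b) ((g : V ≃ₗ[F] V)⁻¹ w))
  have hΦ : ∀ a b w (g : X), Φ a b w g = (g : V ≃ₗ[F] V)
      (polar QK ((g : V ≃ₗ[F] V)⁻¹ a) ((g : V ≃ₗ[F] V)⁻¹ b) • (g : V ≃ₗ[F] V)⁻¹ w) :=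
    fun a b w g => rfl
  have hinv1 : ∀ (g : V ≃ₗ[F] V) z, g (g⁻¹ z) = z := fun g z => g.apply_symm_apply z
  have hΦH : ∀ a b w (g : X), ∀ k ∈ H, Φ a b w (g * k) = Φ a b w g := by
    intro a b w g k hk
    obtain ⟨σ, hσ⟩ : (k : V ≃ₗ[F] V) ∈ NK F K V := hk
    have hkO : (k : V ≃ₗ[F] V) ∈ O Q := hXO k.2
    rw [hΦ, hΦ]
    have h1 : ∀ z, (((g * k : X) : V ≃ₗ[F] V)⁻¹ z) =
        (k : V ≃ₗ[F] V)⁻¹ ((g : V ≃ₗ[F] V)⁻¹ z) := by
      intro z
      rw [Subgroup.coe_mul, mul_inv_rev]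
      rfl
    rw [h1, h1, h1, Subgroup.coe_mul, LinearEquiv.mul_apply, hσ, hinv1,
      ← h.polar_sigma hkO hσ, hinv1, hinv1]
  have hΦsum : ∀ a b w (g : X), ∑ x, Φ a b w (ρ x * g) = 0 := by
    intro a b w g
    have hinvP : ∀ z, (fun x : ι → F => (rho F QK v (e x • y) hv (smul_perp hy _))⁻¹ z) ∈
        Pol F ι V 2 := by
      intro z
      have h1 := Pol.map (rho_pol v y hv hy (-(e : (ι → F) →ₗ[F] K)))
        (LinearMap.applyₗ (R := F) z : (V →ₗ[F] V) →ₗ[F] V)
      convert h1 using 1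
      funext x
      have hn : polar QK v (-(e x • y)) = 0 := by rw [polar_neg_right, smul_perp hy, neg_zero]
      rw [rho_inv hv (smul_perp hy _) hn]
      change rho F QK v (-(e x • y)) hv hn z = rho F QK v ((-e x) • y) hv (smul_perp hy _) z
      congr 2
      rw [neg_smul]
    -- the bilinear maps
    let g' : V →ₗ[F] V := ((g : V ≃ₗ[F] V)⁻¹ : V ≃ₗ[F] V).toLinearMap
    let P : V →ₗ[F] V →ₗ[F] K := LinearMap.mk₂ F (fun a b => polar QK (g' a) (g' b))
      (fun a a' b => by rw [map_add, polar_add_left])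
      (fun c a b => by
        rw [map_smul, ← algebraMap_smul K c (g' a), polar_smul_left, algebraMap_smul_eq])
      (fun a b b' => by rw [map_add, polar_add_right])
      (fun c a b => by
        rw [map_smul, ← algebraMap_smul K c (g' b), polar_smul_right, algebraMap_smul_eq])
    let S : K →ₗ[F] V →ₗ[F] V := LinearMap.mk₂ F (fun c w => (g : V ≃ₗ[F] V) (c • g' w))
      (fun c c' w => by rw [add_smul, map_add]) (fun a c w => by rw [smul_assoc, map_smul])
      (fun c w w' => by rw [map_add, smul_add, map_add])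
      (fun a c w => by
        rw [g'.map_smul a w, smul_comm c a, LinearEquiv.map_smul (g : V ≃ₗ[F] V) a _])
    have h1 := Pol.bilin (rho_pol v y hv hy (e : (ι → F) →ₗ[F] K))
      (Pol.bilin (Pol.bilin (hinvP a) (hinvP b) P) (hinvP w) S)
      (LinearMap.id : (V →ₗ[F] V) →ₗ[F] (V →ₗ[F] V))
    have hq : 3 ≤ Fintype.card F := by
      have h6 : 1 < Nat.card F := Finite.one_lt_card
      by_contra h7
      rw [Nat.card_eq_fintype_card] at h6
      have h8 : Fintype.card F = 2 := by omega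
      apply h.twoF
      have h9 : ((Fintype.card F : ℕ) : F) = 0 := Nat.cast_card_eq_zero F
      rwa [h8] at h9
    have h2 := Pol.sum_eq_zero (d := 2 + (2 + 2 + 2)) (by
      rw [Fintype.card_fin]
      have h3 : 2 * 5 ≤ (Fintype.card F - 1) * finrank F K := Nat.mul_le_mul (by omega) h5
      omega) h1
    rw [← h2]
    refine Fintype.sum_equiv Multiplicative.toAdd _ _ fun x => ?_
    rw [hΦ]
    have h3 : ∀ z, (((ρ x * g : X) : V ≃ₗ[F] V)⁻¹ z) =
        (g : V ≃ₗ[F] V)⁻¹ ((rho F QK v (e x.toAdd • y) hv (smul_perp hy _))⁻¹ z) := by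
      intro z
      rw [Subgroup.coe_mul, mul_inv_rev]
      rfl
    rw [h3, h3, h3]
    rfl
  have hfree : ∀ g : X, g ∉ H → ∀ x, x ≠ 1 → g⁻¹ * ρ x * g ∉ H := by
    intro g hg x hx hgx
    apply hg
    rw [Subgroup.mem_subgroupOf]
    refine free h hG hm hX hr h5 hT hv0 hv hy hy0 g.2 (c := e x.toAdd) ?_ hgx
    intro h0
    apply hx
    have h1 := e.map_eq_zero_iff.1 h0
    exact h1
  have havg : ∀ a b w (x : X), ∑ γ : X ⧸ H, Φ a b w (x * γ.out) = Φ a b w 1 := by
    intro a b w x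
    exact sum_eq ρ (fun x => rho_mem_NK _ _) hfree (hΦH a b w) (hΦsum a b w) x
  have hΦ1 : ∀ a b w, Φ a b w 1 = polar QK a b • w := fun a b w => rfl
  have hinvar : ∀ (x : X) a b w, (x : V ≃ₗ[F] V) (polar QK a b • w) =
      polar QK ((x : V ≃ₗ[F] V) a) ((x : V ≃ₗ[F] V) b) • (x : V ≃ₗ[F] V) w := by
    intro x a b w
    have h1 := havg a b w 1
    have h2 := havg ((x : V ≃ₗ[F] V) a) ((x : V ≃ₗ[F] V) b) ((x : V ≃ₗ[F] V) w) x
    rw [hΦ1] at h1 h2
    rw [← h1, ← h2, map_sum]
    refine Finset.sum_congr rfl fun γ _ => ?_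
    rw [hΦ, hΦ, one_mul]
    have h3 : ∀ z, (((x * γ.out : X) : V ≃ₗ[F] V)⁻¹ ((x : V ≃ₗ[F] V) z)) =
        ((γ.out : X) : V ≃ₗ[F] V)⁻¹ z := by
      intro z
      rw [Subgroup.coe_mul, mul_inv_rev, LinearEquiv.mul_apply]
      congr 1
      exact (x : V ≃ₗ[F] V).symm_apply_apply z
    rw [h3, h3, h3, Subgroup.coe_mul, LinearEquiv.mul_apply]
  intro g hg
  apply mem_NK_of_forall
  intro c
  refine ⟨polar QK (g (c • v)) (g v'), fun w => ?_⟩
  have h1 := hinvar ⟨g, hg⟩ (c • v) v' w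
  rw [polar_smul_left, hH.pair, smul_eq_mul, mul_one] at h1
  exact h1
where
  algebraMap_smul_eq {c : F} {a : K} : algebraMap F K c • a = c • a := algebraMap_smul K c a

end

end Cfsg.Agent.H884.Ext
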