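import Mathlib
import Cfsg.Agent.H884.ExtB5

/-!
# Extension fields in orthogonal groups: degree two, dimension four (helper884)

Here the Witt index over `K` may be one.
-/

set_option autoImplicit false
set_option linter.unusedSectionVars false

namespace Cfsg.Agent.H884.Ext

open QuadraticMap Cfsg.Agent.LieClassical.OrthCore Cfsg.Agent.LieClassical.OrthTrans
  Cfsg.Agent.LieClassical.OrthSimple Cfsg.Agent.LieClassical.OrthFinite Cfsg.Agent.H883.Root
  Cfsg.Agent.H883.Sub Module

variable {F K V : Type*} [Field F] [Field K] [Algebra F K] [AddCommGroup V] [Module F V] [Module K V]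
  [IsScalarTower F K V] {Q : QuadraticForm F V} {QK : QuadraticForm K V}

variable {X : Subgroup (V ≃ₗ[F] V)} {v v' : V}

section

variable [Finite K] [FiniteDimensional F V]

/-- The configuration behind `has_sing_of_two`. -/
theorem exists_config (h : TF Q QK) {v w : V} {τ : K} (hv : QK v = 0) (hw : QK w = -τ)
    (hτ : τ ≠ 0) (hv0 : v ≠ 0) (hvw : polar QK v w = 0) :
    ∃ x x' : V, QK x = 0 ∧ QK x' = 0 ∧ polar QK x x' = 1 ∧ w = x - τ • x' ∧
      polar QK (x + τ • x') v = 2 * τ := by
  have h2 := h.two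
  obtain ⟨y, hy1, hy2⟩ := exists_sep h.nondeg (x := v) (z := w) (by
    rintro c rfl
    by_cases hc : c = 0
    · exact hv0 (by rw [hc, zero_smul])
    · rw [QuadraticMap.map_smul, hw, smul_eq_mul, mul_neg, neg_eq_zero] at hv
      exact mul_ne_zero (mul_ne_zero hc hc) hτ hv)
  -- `polar w y = 0`, `polar v y = 1`
  obtain ⟨z1, hz1⟩ : ∃ z1 : V, z1 = (-2 * τ) • y := ⟨_, rfl⟩
  have h1 : polar QK z1 w = 0 := by rw [hz1, polar_smul_left, polar_comm QK y w, hy1, smul_zero]
  have h3 : polar QK z1 v = -2 * τ := by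
    rw [hz1, polar_smul_left, polar_comm QK y v, hy2, smul_eq_mul, mul_one]
  obtain ⟨e, he⟩ : ∃ e : K, e = (QK z1 + τ) * (2 * τ)⁻¹ := ⟨_, rfl⟩
  have h2τ : 2 * τ ≠ 0 := mul_ne_zero h2 hτ
  have he2 : e * (2 * τ) = QK z1 + τ := by rw [he, mul_assoc, inv_mul_cancel₀ h2τ, mul_one]
  obtain ⟨z, hz⟩ : ∃ z : V, z = z1 + e • v := ⟨_, rfl⟩
  have hzw : polar QK z w = 0 := by
    rw [hz, polar_add_left, polar_smul_left, h1, hvw, smul_zero, add_zero]
  have hzv : polar QK z v = -2 * τ := by
    rw [hz, polar_add_left, polar_smul_left, polar_self_of_sing hv, smul_zero, add_zero, h3]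
  have hQz : QK z = -τ := by
    rw [hz, Q_add, QuadraticMap.map_smul, hv, polar_smul_right, h3]
    simp only [smul_eq_mul]
    linear_combination (-1 : K) * he2
  obtain ⟨A, hA⟩ : ∃ A : V, A = v - z := ⟨_, rfl⟩
  have hvz : polar QK v z = -2 * τ := by rw [polar_comm, hzv]
  have hAw : polar QK A w = 0 := by rw [hA, polar_sub_left, hvw, hzw, sub_zero]
  have hQA : QK A = τ := by
    rw [hA, sub_eq_add_neg, Q_add, QuadraticMap.map_neg, polar_neg_right, hv, hQz, hvz]
    ring
  have hAv : polar QK A v = 2 * τ := by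
    rw [hA, polar_sub_left, polar_self_of_sing hv, hzv]
    ring
  have hhalf : (2 : K)⁻¹ * 2 = 1 := inv_mul_cancel₀ h2
  have hττ : τ⁻¹ * τ = 1 := inv_mul_cancel₀ hτ
  have hx : (2 : K)⁻¹ • (A + w) - τ • ((2 * τ)⁻¹ • (A - w)) = w := by
    rw [smul_smul, mul_inv, mul_left_comm, mul_comm τ, hττ, mul_one, ← smul_sub]
    have : A + w - (A - w) = (2 : K) • w := by rw [two_smul]; abel
    rw [this, smul_smul, hhalf, one_smul]
  have hx' : (2 : K)⁻¹ • (A + w) + τ • ((2 * τ)⁻¹ • (A - w)) = A := by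
    rw [smul_smul, mul_inv, mul_left_comm, mul_comm τ, hττ, mul_one, ← smul_add]
    have : A + w + (A - w) = (2 : K) • A := by rw [two_smul]; abel
    rw [this, smul_smul, hhalf, one_smul]
  refine ⟨(2 : K)⁻¹ • (A + w), (2 * τ)⁻¹ • (A - w), ?_, ?_, ?_, hx.symm, ?_⟩
  · rw [QuadraticMap.map_smul, Q_add, hQA, hw, hAw]
    simp
  · rw [QuadraticMap.map_smul, sub_eq_add_neg A w, Q_add, QuadraticMap.map_neg, hQA, hw,
      polar_neg_right, hAw]
    simp
  · rw [polar_smul_left, polar_smul_right, polar_add_left, polar_sub_right, polar_sub_right,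
      polar_comm QK w A, hAw, polar_self', polar_self', hQA, hw]
    simp only [smul_eq_mul]
    field_simp
    ring
  · rw [hx', hAv]

/-- `v ∧ w` for `v` singular over `K` and `w ⊥_K v` singular over `F`. -/
theorem has_sing_of_two (h : TF Q QK) (hG : Good Q) (hX : Over Q K X) (hr : finrank F K = 2)
    (hall : ∀ w, QK w = 0 → ∀ x y, HasB QK X w (wedge F x y)) {w : V} (hv : QK v = 0)
    (hw : Q w = 0) (hvw : polar QK v w = 0) : Has Q X v w := by
  have hXO : X ≤ O Q := fun g hg => E_le_O (hX.le hg)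
  by_cases hv0 : v = 0
  · rw [hv0]
    exact has_zero_left w
  by_cases hw0 : QK w = 0
  · exact has_of_two h hG hX hr hall hv hw0 hvw
  obtain ⟨j, hj0, hj⟩ := exists_j (F := F) hr
  obtain ⟨hdec, D, hD⟩ := decomp_j h.twoF hr hj0 hj
  have h2F := h.twoF
  have hD0 : D ≠ 0 := by
    rintro rfl
    rw [map_zero] at hD
    exact hj0 (mul_self_eq_zero.1 hD)
  have htr : ∀ a : F, Algebra.trace F K (algebraMap F K a) = 2 * a := by
    intro a
    rw [Algebra.trace_algebraMap, hr, nsmul_eq_mul, Nat.cast_ofNat]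
  -- `QK w = b j`
  obtain ⟨b, hb⟩ : ∃ b : F, QK w = b • j := by
    obtain ⟨a, b, hab⟩ := hdec (QK w)
    refine ⟨b, ?_⟩
    have h1 := hw
    rw [h.tr, hab, map_add, map_smul, hj, smul_zero, add_zero, htr] at h1
    rw [hab, (mul_eq_zero.1 h1).resolve_left h2F, map_zero, zero_add]
  have hb0 : b ≠ 0 := by
    rintro rfl
    rw [zero_smul] at hb
    exact hw0 hb
  set t : F := -(b * D⁻¹) with ht
  have ht0 : t ≠ 0 := neg_ne_zero.2 (mul_ne_zero hb0 (inv_ne_zero hD0))
  set τ : K := t • j with hτ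
  have hτ0 : τ ≠ 0 := smul_ne_zero ht0 hj0
  set w1 : V := j⁻¹ • w with hw1
  have hjj : j * j⁻¹ = 1 := mul_inv_cancel₀ hj0
  have hww1 : w = j • w1 := by rw [hw1, smul_smul, hjj, one_smul]
  have hQw1 : QK w1 = -τ := by
    rw [hw1, QuadraticMap.map_smul, hb, hτ, ht, smul_eq_mul, Algebra.smul_def, Algebra.smul_def,
      map_neg, map_mul, map_inv₀, ← hD]
    field_simp
  have hvw1 : polar QK v w1 = 0 := by rw [hw1, polar_smul_right, hvw, smul_zero]
  obtain ⟨x, x', hx, hx', hxx', hwx, hAv⟩ := exists_config h hv hQw1 hτ0 hv0 hvw1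
  -- the element of `X`
  obtain ⟨g, hg, hgx⟩ := hall x' hx' 1 ((t * 2⁻¹) • j)
  have hgO := hXO hg
  have hpx : polar QK x' x = 1 := by rw [polar_comm, hxx']
  have h2t : (2 : F) * (t * 2⁻¹) = t := by field_simp
  have hg1 : g x = x + τ • x' := by
    rw [hgx, hpx, wedge_apply, mul_one, mul_one, map_smul, hj, smul_zero,
      zero_smul, sub_zero, ← map_one (algebraMap F K), htr, mul_one, smul_smul, h2t]
  have hg2 : g (j • x) = w := by
    rw [hgx, polar_smul_right, hpx, wedge_apply, one_mul, smul_eq_mul, mul_one, hj, zero_smul,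
      zero_sub, smul_mul_assoc, map_smul, hD, htr, hww1, hwx, smul_sub, smul_smul, sub_eq_add_neg]
    congr 1
    rw [← neg_smul]
    congr 1
    rw [hτ, mul_smul_comm, hD, smul_eq_mul, Algebra.smul_def, Algebra.smul_def, mul_one, ← map_mul]
    have e0 : -(t * 2⁻¹ * (2 * D)) = -(t * D) := by field_simp
    rw [e0, map_neg, neg_smul]
  have hHas : Has Q X (x + τ • x') w := by
    have h1 := has_of_wedge h hx (hall x hx 1 j)
    rw [one_smul] at h1
    have h2 := h1.map hgO hg
    rwa [hg1, hg2] at h2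
  set lam : F := 4 * (t * D) with hlam
  have h4 : (4 : F) ≠ 0 := by
    have : (4 : F) = 2 * 2 := by norm_num
    rw [this]
    exact mul_ne_zero h2F h2F
  have hlam0 : lam ≠ 0 := mul_ne_zero h4 (mul_ne_zero ht0 hD0)
  have hself : Has Q X v ((lam⁻¹ • j) • v) := by
    have := has_of_wedge h hv (hall v hv 1 (lam⁻¹ • j))
    rwa [one_smul] at this
  have e1 : polar Q (x + τ • x') v = 0 := by
    rw [h.polar_eq, hAv, hτ, mul_smul_comm, map_smul, ← map_ofNat (algebraMap F K) 2,
      ← Algebra.smul_def, map_smul, hj, smul_zero, smul_zero]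
  have e2 : polar Q w v = 0 := by
    rw [h.polar_eq, polar_comm, hvw, map_zero]
  have e3 : polar Q w ((lam⁻¹ • j) • v) = 0 := by
    rw [h.smul_right, polar_comm, hvw, mul_zero, map_zero]
  have h5 := Has.comm' hHas hself e1 e2 hw e3
  have e4 : polar Q (x + τ • x') ((lam⁻¹ • j) • v) = 1 := by
    rw [h.smul_right, hAv, hτ]
    have e5 : (lam⁻¹ • j) * (2 * t • j) = algebraMap F K (lam⁻¹ * (2 * (t * D))) := by
      simp only [Algebra.smul_def, map_mul, ← hD, map_ofNat]
      ring
    rw [e5, htr]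
    have : lam⁻¹ * lam = 1 := inv_mul_cancel₀ hlam0
    rw [← this, hlam]
    ring
  rwa [e4, one_smul] at h5

/-- An `F`-hyperbolic pair in `⟨v, v'⟩^⊥`. -/
theorem exists_hyp_F (h : TF Q QK) (hr : finrank F K = 2) (hdim : 7 ≤ finrank F V)
    (hH : Hyp QK v v') : ∃ x y, Hyp Q x y ∧ polar QK v x = 0 ∧ polar QK v' x = 0 ∧
      polar QK v y = 0 ∧ polar QK v' y = 0 := by
  have hFfin : Finite F := Finite.of_injective _ (algebraMap F K).injective
  obtain ⟨j, hj0, hj⟩ := exists_j (F := F) hr
  obtain ⟨hdec, D, hD⟩ := decomp_j h.twoF hr hj0 hj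
  obtain ⟨x, hx0, hx, hxu⟩ := exists_sing_perp (Q := Q) ![v, j • v, v', j • v'] (by omega)
  have hu1 : polar Q v x = 0 := hxu 0
  have hu2 : polar Q (j • v) x = 0 := hxu 1
  have hu3 : polar Q v' x = 0 := hxu 2
  have hu4 : polar Q (j • v') x = 0 := hxu 3
  have hK : ∀ u : V, polar Q u x = 0 → polar Q (j • u) x = 0 → polar QK u x = 0 := by
    intro u h1 h2
    apply h.polarK_eq_zero
    intro c
    obtain ⟨a, b, rfl⟩ := hdec c
    rw [add_smul, algebraMap_smul, smul_assoc, polar_add_left, polar_smul_left, polar_smul_left,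
      h1, h2, smul_zero, smul_zero, add_zero]
  have hvx := hK v hu1 hu2
  have hv'x := hK v' hu3 hu4
  obtain ⟨y0, hy0⟩ := exists_hyp h.nondegF hx hx0
  set y1 := proj QK v v' y0 with hy1
  have h1 : polar QK v y1 = 0 := polar_proj_left hH _
  have h2 : polar QK v' y1 = 0 := polar_proj_right hH _
  have h3 : polar Q x y1 = 1 := by
    rw [h.polar_eq, hy1, polar_proj_of_perp hvx hv'x, ← h.polar_eq, hy0.pair]
  refine ⟨x, y1 - Q y1 • x, ⟨hx, ?_, ?_⟩, hvx, hv'x, ?_, ?_⟩
  · rw [sub_eq_add_neg, Q_add, QuadraticMap.map_neg, QuadraticMap.map_smul, hx, polar_neg_right,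
      polar_smul_right, polar_comm Q y1 x, h3]
    simp
  · rw [polar_sub_right, polar_smul_right, polar_self_of_sing hx, smul_zero, sub_zero, h3]
  · rw [← algebraMap_smul K (Q y1) x, polar_sub_right, polar_smul_right, h1, hvx, smul_zero,
      sub_zero]
  · rw [← algebraMap_smul K (Q y1) x, polar_sub_right, polar_smul_right, h2, hv'x, smul_zero,
      sub_zero]

/-- **Degree two, `B ≠ 1`, dimension at least four**: all Siegel transformations. -/
theorem full_of_two' (h : TF Q QK) (hG : Good Q) (hX : Over Q K X) (hr : finrank F K = 2)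
    (hdim : 7 ≤ finrank F V) (hall : ∀ w, QK w = 0 → ∀ x y, HasB QK X w (wedge F x y)) {u : V}
    (hu : QK u = 0) (hu0 : u ≠ 0) : Full Q X u := by
  obtain ⟨u', hH⟩ := exists_hyp h.nondeg hu hu0
  refine ⟨h.sing hu, fun w hw => ?_⟩
  have hself : ∀ b : K, Has Q X u (b • u) := by
    intro b
    have := has_of_wedge h hu (hall u hu 1 b)
    rwa [one_smul] at this
  obtain ⟨x, y, hxy, hux, hu'x, huy, hu'y⟩ := exists_hyp_F h hr hdim hH
  have hperp : ∀ z, polar QK u z = 0 → polar QK u' z = 0 → Has Q X u z := by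
    intro z hz1 hz2
    have hsing : ∀ s, Q s = 0 → polar QK u s = 0 → Has Q X u s :=
      fun s hs h1 => has_sing_of_two h hG hX hr hall hu hs h1
    have hsm : ∀ (c : F) (s : V), polar QK u s = 0 → polar QK u (c • s) = 0 := by
      intro c s hs
      rw [← algebraMap_smul K c s, polar_smul_right, hs, smul_zero]
    have hQsm : ∀ (c : F) (s : V), Q s = 0 → Q (c • s) = 0 := by
      intro c s hs
      rw [QuadraticMap.map_smul, hs, smul_zero]
    set z' := Cfsg.Agent.LieClassical.OrthTrans.proj Q x y z with hz'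
    have e : z = (((polar Q y z • x + polar Q x z • y) + (x + z' - Q z' • y)) + (Q z' • y)) +
        (-1 : F) • x := by
      rw [hz', Cfsg.Agent.LieClassical.OrthTrans.proj]; module
    have huz' : polar QK u z' = 0 := by
      have e2 : z' = z - polar Q y z • x - polar Q x z • y := by
        rw [hz', Cfsg.Agent.LieClassical.OrthTrans.proj]
      rw [e2, polar_sub_right, polar_sub_right, hz1, hsm _ _ hux, hsm _ _ huy]
      simp
    rw [e]
    refine ((((hsing _ (hQsm _ _ hxy.left) (hsm _ _ hux)).add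
      (hsing _ (hQsm _ _ hxy.right) (hsm _ _ huy))).add (hsing _ ?_ ?_)).add
      (hsing _ (hQsm _ _ hxy.right) (hsm _ _ huy))).add
      (hsing _ (hQsm _ _ hxy.left) (hsm _ _ hux))
    · have h1 : polar Q x z' = 0 := polar_proj_left hxy _
      have h2 : polar Q y z' = 0 := polar_proj_right hxy _
      rw [sub_eq_add_neg, Q_add, Q_add, QuadraticMap.map_neg, QuadraticMap.map_smul, hxy.left,
        hxy.right, h1, polar_neg_right, polar_smul_right, polar_add_left, hxy.pair,
        polar_comm Q z' y, h2]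
      simp
    · rw [polar_sub_right, polar_add_right, hux, huz', hsm _ _ huy]
      simp
  have hopp : ∀ a : K, Algebra.trace F K a = 0 → Has Q X u (a • u') := by
    intro a ha
    have hau : QK (a • u') = 0 := by rw [QuadraticMap.map_smul, hH.right, smul_zero]
    have h0 : Has Q X (a • u') x := has_sing_of_two h hG hX hr hall hau hxy.left (by
      rw [polar_smul_left, hu'x, smul_zero])
    have h1 : Has Q X x (a • u') := by
      have := (h0.swap hxy.left).neg
      rwa [neg_neg] at this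
    have h2 : Has Q X u y := hperp _ huy hu'y
    have h3 := Has.comm' h1 h2 (h.perp_of (by rw [polar_comm, hux]))
      (by rw [h.smul_left, hH.pair', mul_one, ha]) (h.sing hau)
      (by rw [h.smul_left, hu'y, mul_zero, map_zero])
    rwa [hxy.pair, one_smul] at h3
  have hdec : w = polar QK u w • u' + (w - polar QK u w • u' - polar QK u' w • u) +
      polar QK u' w • u := by abel
  rw [hdec]
  refine ((hopp _ ?_).add (hperp _ ?_ ?_)).add (hself _)
  · rw [← h.polar_eq]
    exact hw
  · rw [polar_sub_right, polar_sub_right, polar_smul_right, polar_smul_right, hH.pair,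
      hH.polar_left]
    simp
  · rw [polar_sub_right, polar_sub_right, polar_smul_right, polar_smul_right, hH.polar_right,
      hH.pair']
    simp

/-- **The overgroups of the semilinear group in the orthogonal group**, degree two. -/
theorem overgroup2 [FiniteDimensional K V] (h : TF Q QK) (hG : Good Q) (hX : Over Q K X)
    (hm : 4 ≤ finrank K V) (hr : finrank F K = 2) : X ≤ NK F K V ∨ E Q ≤ X := by
  by_cases hT : ∀ v, v ≠ 0 → QK v = 0 → Triv QK X v
  · exact Or.inl (le_NK_of_triv h hG hm hX hT)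
  · right
    push Not at hT
    obtain ⟨v, hv0, hv, hT⟩ := hT
    obtain ⟨v', hH⟩ := exists_hyp h.nondeg hv hv0
    have hfd : FiniteDimensional F K := FiniteDimensional.of_finrank_pos (by omega)
    have hdim : 7 ≤ finrank F V := by
      rw [← finrank_mul_finrank F K V, hr]
      omega
    have hw := wedge_of_two h hG hX hr hv hv0 hT
    have hall : ∀ w, QK w = 0 → ∀ x y, HasB QK X w (wedge F x y) := by
      intro w hw1 x y
      by_cases hw0 : w = 0
      · rw [hw0]
        exact ⟨1, X.one_mem, fun x => by simp⟩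
      · exact wedge_transport h hG hX (by omega) hv hv0 hw hw1 hw0 x y
    exact E_le_of_full h hG hH fun u hu hu0 => full_of_two' h hG hX hr hdim hall hu hu0

end

end Cfsg.Agent.H884.Ext
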