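import Mathlib
import Cfsg.Agent.H884.ExtGL
import Cfsg.Agent.H884.ExtB6

/-!
# The normaliser of a self-adjoint quadratic extension field is maximal in `Ω` (helper884)
-/

set_option autoImplicit false
set_option linter.unusedSectionVars false
set_option linter.style.haveILetI false

namespace Cfsg.Agent.H884.Ext

open QuadraticMap Cfsg.Agent.LieClassical.OrthCore Cfsg.Agent.LieClassical.OrthTrans
  Cfsg.Agent.LieClassical.OrthSimple Cfsg.Agent.LieClassical.OrthFinite Module
open Cfsg.Geo Cfsg.Agent.H887.OmegaBridge Cfsg.Agent.H923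
open scoped MatrixGroups Matrix

variable {ι : Type} [Fintype ι] [DecidableEq ι] {F : Type*} [Field F]

/-- **The normaliser of a self-adjoint quadratic extension field is maximal in `Ω`** (odd
characteristic, dimension at least eight over `F`, any type). -/
theorem quadratic_field_normalizer_isMaximalIn [Finite F] (h2 : (2 : F) ≠ 0)
    {Q : (ι → F) → F} (hQ : IsNondegenerateQuadraticForm Q)
    {K : Subalgebra F (Matrix ι ι F)} (hK : IsFieldSubalgebra 2 K)
    (hsa : IsSelfAdjointFor (polar Q) K) (hn : 8 ≤ Fintype.card ι) :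
    IsMaximalIn (omegaGL Q) (subalgebraNormalizer K ⊓ omegaGL Q) := by
  have : Nonempty ι := Fintype.card_pos_iff.1 (by omega)
  letI := fieldOf hK
  have hfr : finrank F K = 2 := hK.finrank_eq
  have h1 := finrank_mul hK
  have hm : 4 ≤ finrank K (ι → F) := by omega
  have hKfin : Finite K := Module.finite_of_finite F
  have hKV : FiniteDimensional K (ι → F) := FiniteDimensional.of_finrank_pos (by omega)
  have hdim : finrank F (ι → F) = Fintype.card ι := Module.finrank_fintype_fun_eq_card F
  have hG : Good (qf Q hQ) := good_of_finite (nondeg_qf Q hQ) (by omega)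
  obtain ⟨QK, hTF⟩ := exists_TF (K := K) (Q := qf Q hQ) h2 (nondeg_qf Q hQ)
    (fun k u v => hsa k k.2 u v)
  refine isMaximalIn_omegaGL Q hQ hG (subalgebraNormalizer K)
    (NK F K (ι → F) : Set ((ι → F) ≃ₗ[F] (ι → F))) (mem_subalgebraNormalizer_iff_NK hK) ?_ ?_
  · by_contra hcon
    push Not at hcon
    apply Cfsg.Agent.H925.omegaGL_not_le_subalgebraNormalizer hQ (by omega) le_rfl hK
    intro g hg
    rw [mem_subalgebraNormalizer_iff_NK hK]
    exact hcon _ ((mem_omegaGL_iff Q hQ hG g).1 hg)
  · intro H hHE hSH hex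
    have hOver : Over (qf Q hQ) K H := ⟨hHE, hSH⟩
    rcases overgroup2 hTF hG hOver hm hfr with h | h
    · obtain ⟨g, hg, hgn⟩ := hex
      exact absurd (h hg) hgn
    · exact h

/-- **The normaliser of a self-adjoint extension field of prime degree is maximal in `Ω`** (odd
characteristic, dimension at least four over the extension field). -/
theorem extension_field_normalizer_isMaximalIn_four [Finite F] (h2 : (2 : F) ≠ 0)
    {Q : (ι → F) → F} (hQ : IsNondegenerateQuadraticForm Q) {r : ℕ} (hr : r.Prime)
    {K : Subalgebra F (Matrix ι ι F)} (hK : IsFieldSubalgebra r K)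
    (hsa : IsSelfAdjointFor (polar Q) K) (hn : 4 * r ≤ Fintype.card ι) :
    IsMaximalIn (omegaGL Q) (subalgebraNormalizer K ⊓ omegaGL Q) := by
  by_cases h3 : r = 2
  · subst h3
    exact quadratic_field_normalizer_isMaximalIn h2 hQ hK hsa (by omega)
  · exact extension_field_normalizer_isMaximalIn h2 hQ hr hK hsa hn fun h4 => absurd h4 h3

end Cfsg.Agent.H884.Ext
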