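import Mathlib
import Cfsg.Agent.H884.ExtGL
import Cfsg.Agent.H884.Ext5

/-!
# The normaliser of a self-adjoint extension field is maximal in `Ω`: three-dimensional case (helper884)
-/

set_option autoImplicit false
set_option linter.unusedSectionVars false
set_option linter.style.haveILetI false

namespace Cfsg.Agent.H884.Ext

open QuadraticMap Cfsg.Agent.LieClassical.OrthCore Cfsg.Agent.LieClassical.OrthTrans
  Cfsg.Agent.LieClassical.OrthSimple Cfsg.Agent.LieClassical.OrthFinite Module

/-- **The overgroups of the semilinear group in the orthogonal group**, degree at least five,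
dimension at least three. -/
theorem overgroup5 {F K V : Type*} [Field F] [Field K] [Algebra F K] [AddCommGroup V] [Module F V]
    [Module K V] [IsScalarTower F K V] {Q : QuadraticForm F V} {QK : QuadraticForm K V}
    {X : Subgroup (V ≃ₗ[F] V)} [Finite K] [FiniteDimensional F V] [FiniteDimensional K V]
    (h : TF Q QK) (hG : Good Q) (hX : Over Q K X) (hm : 3 ≤ finrank K V)
    (hr : (finrank F K).Prime) (h5 : 5 ≤ finrank F K) : X ≤ NK F K V ∨ E Q ≤ X := by
  by_cases hT : ∀ v, v ≠ 0 → QK v = 0 → Triv QK X v
  · exact Or.inl (le_NK_of_triv5 h hG hm hX hr h5 hT)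
  · right
    push Not at hT
    obtain ⟨v, hv0, hv, hT⟩ := hT
    have hFfin : Finite F := Finite.of_injective _ (algebraMap F K).injective
    have hfd : FiniteDimensional F K := FiniteDimensional.of_finrank_pos hr.pos
    have hK : 9 < Nat.card K := by
      have h4 : Nat.card K = Nat.card F ^ finrank F K := Module.natCard_eq_pow_finrank
      have h6 : 2 ≤ Nat.card F := Finite.one_lt_card
      rw [h4]
      calc 9 < 2 ^ 5 := by norm_num
        _ ≤ Nat.card F ^ 5 := Nat.pow_le_pow_left h6 5
        _ ≤ Nat.card F ^ finrank F K := Nat.pow_le_pow_right (by omega) h5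
    exact E_le_of_odd h hG hX hm hr (by omega) hK hv hv0 hT

open Cfsg.Geo Cfsg.Agent.H887.OmegaBridge Cfsg.Agent.H923
open scoped MatrixGroups Matrix

variable {ι : Type} [Fintype ι] [DecidableEq ι] {F : Type*} [Field F]

/-- **The normaliser of a self-adjoint extension field of prime degree at least five is maximal in
`Ω`** (odd characteristic, dimension at least three over the extension field). -/
theorem extension_field_normalizer_isMaximalIn5 [Finite F] (h2 : (2 : F) ≠ 0)
    {Q : (ι → F) → F} (hQ : IsNondegenerateQuadraticForm Q) {r : ℕ} (hr : r.Prime) (h5 : 5 ≤ r)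
    {K : Subalgebra F (Matrix ι ι F)} (hK : IsFieldSubalgebra r K)
    (hsa : IsSelfAdjointFor (polar Q) K) (hn : 3 * r ≤ Fintype.card ι) :
    IsMaximalIn (omegaGL Q) (subalgebraNormalizer K ⊓ omegaGL Q) := by
  have : Nonempty ι := Fintype.card_pos_iff.1 (by omega)
  letI := fieldOf hK
  have hfr : finrank F K = r := hK.finrank_eq
  have h1 := finrank_mul hK
  have hm : 3 ≤ finrank K (ι → F) := by
    by_contra hlt'
    have h3 : finrank K (ι → F) ≤ 2 := by omega
    have : r * finrank K (ι → F) ≤ r * 2 := Nat.mul_le_mul_left _ h3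
    omega
  have hKfin : Finite K := Module.finite_of_finite F
  have hKV : FiniteDimensional K (ι → F) := FiniteDimensional.of_finrank_pos (by omega)
  have hdim : finrank F (ι → F) = Fintype.card ι := Module.finrank_fintype_fun_eq_card F
  have hG : Good (qf Q hQ) := good_of_finite (nondeg_qf Q hQ) (by omega)
  obtain ⟨QK, hTF⟩ := exists_TF (K := K) (Q := qf Q hQ) h2 (nondeg_qf Q hQ)
    (fun k u v => hsa k k.2 u v)
  refine isMaximalIn_omegaGL Q hQ hG (subalgebraNormalizer K)
    (NK F K (ι → F) : Set ((ι → F) ≃ₗ[F] (ι → F))) (mem_subalgebraNormalizer_iff_NK hK) ?_ ?_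
  · by_contra hcon
    push Not at hcon
    apply Cfsg.Agent.H925.omegaGL_not_le_subalgebraNormalizer hQ (by omega) hr.two_le hK
    intro g hg
    rw [mem_subalgebraNormalizer_iff_NK hK]
    exact hcon _ ((mem_omegaGL_iff Q hQ hG g).1 hg)
  · intro H hHE hSH hex
    have hOver : Over (qf Q hQ) K H := ⟨hHE, hSH⟩
    rcases overgroup5 hTF hG hOver hm (by rw [hfr]; exact hr) (by rw [hfr]; exact h5) with h | h
    · obtain ⟨g, hg, hgn⟩ := hex
      exact absurd (h hg) hgn
    · exact h

end Cfsg.Agent.H884.Ext
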